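import Cfsg.Agent.H1.PA1
import Cfsg.Agent.H21.SmallAut

/-! Fixed points of elements of odd order on the extraspecial group. -/

set_option autoImplicit false
set_option linter.unusedSectionVars false

namespace H0.PA
open Cfsg H15 H19 H0 H0.Mo H0.Y H15.ML H15.MX Subgroup Function H1.PA
open scoped commutatorElement

theorem short {g : Co0} {u : Lam} (n : sqNorm (cf u) < 64) (c : Cg (g • u) u) (o : Odd (orderOf g)) :
    g ∈ MulAction.stabilizer Co0 u := by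
  obtain ⟨c, hc, k⟩ := stab_short n c
  refine odd_mem o (pow_orderOf_eq_one g) ?_
  have := mul_mem k k
  rcases H15.mem_center_iff.1 hc with rfl | rfl
  · simpa using this
  · rwa [mul_assoc, ← mul_assoc g, N_cm, ← mul_assoc, ← mul_assoc, coN_mul_self, one_mul] at this

theorem fx : FX := fun g v c n => by
  obtain ⟨k, h⟩ := (std v).resolve_left n
  have t : ∀ u, Cg v (k • u) → Cg ((k⁻¹ * g * k) • u) u := fun u h => Cg.of_smul (g := k) (by
    rw [← mul_smul, ← mul_assoc, ← mul_assoc, mul_inv_cancel, one_mul, mul_smul]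
    exact ((h.smul g).symm.trans c).trans h)
  have o : orderOf (k⁻¹ * g * k) = orderOf g := H10.orderOf_conj' k g
  have s : ∀ u, sqNorm (cf u) < 64 → Cg v (k • u) → sMcL ⊓ MulAction.stabilizer Co0 lU' ≤ MulAction.stabilizer Co0 u →
      ¬ 13 ∣ #(MulAction.stabilizer Co0 u) → ¬ 49 ∣ #(MulAction.stabilizer Co0 u) →
      orderOf g ≠ 13 ∧ (orderOf g = 7 → ∃ k : Co0, Cg (g • k • lE) (k • lE)) := fun u a b l d d' => by
    refine ⟨fun e => d (e ▸ o ▸ orderOf_dvd_natCard _ (short a (t u b) (by rw [o, e]; decide))), fun e => ?_⟩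
    obtain ⟨P, hP⟩ := exists_syl 7 (sMcL ⊓ MulAction.stabilizer Co0 lU')
    have p7 : Nat.Prime 7 := by norm_num
    have hP' : Syl 7 P (MulAction.stabilizer Co0 u) := syl_mk (hP.le.trans l) hP.pi fun x => d' (by
      rw [← card_inf_mul_relIndex P, inf_of_le_left (hP.le.trans l)]
      exact mul_dvd_mul (hP.sdvd_card p7 (by rw [card_sM22]; norm_num)) x)
    obtain ⟨m, -, hm⟩ := hP'.scj_le (zpowers_le_of_mem (short a (t u b) (by rw [o, e]; decide)))
      (fun q hq hd => by rw [Nat.card_zpowers, o, e] at hd; exact (Nat.prime_dvd_prime_iff_eq hq p7).1 hd)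
    have hm := hP.le (hm (conj_mem_cj.2 (mem_zpowers _)))
    refine ⟨k * m⁻¹, Cg.of_smul (g := (k * m⁻¹)⁻¹) ?_⟩
    rw [inv_smul_smul, ← mul_smul, ← mul_smul]
    convert stab_E.2 (mem_NN_of_fix (fix_UU'.1 ⟨hm.1.2, hm.2⟩).1) using 2
    group
  rcases h with h | h | h
  · exact s lU (by rw [norm_U]; norm_num) h (fun _ a => a.1.2) (by rw [card_sCo2]; norm_num) (by rw [card_sCo2]; norm_num)
  · exact s lV (by rw [norm_V]; norm_num) h (fun _ a => a.1.1) (by rw [card_sCo3]; norm_num) (by rw [card_sCo3]; norm_num)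
  · refine ⟨fun e => ?_, fun _ => ⟨k, ((h.smul g).symm.trans c).trans h⟩⟩
    have := orderOf_dvd_natCard _ (stab_E.1 (t _ h))
    rw [o, e, card_NN] at this
    norm_num at this

section
variable {G : Type} [Group G] [Finite G] {Q B D : Subgroup G} {z x : G}

theorem card_adj (h : ES Q z) (hz : z ∈ B) (hB : B ≤ Q) (hx : x ∈ Q) (n : x ∉ B) : #(B ⊔ zpowers x) ≤ 2 * #B := by
  have N := (zpowers_le_of_mem hx).trans (h.norms_of_le hz hB)
  have : ((B ⊔ zpowers x : Subgroup G) : Set G) ⊆ B ∪ (· * x) '' B := fun y hy => by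
    obtain ⟨b, hb, _, ⟨i, rfl⟩, rfl⟩ := (mem_sup_of_norm N).1 hy
    have s := zpowers_le_of_mem hz (h.sq_mem hx)
    rcases Int.even_or_odd' i with ⟨j, rfl | rfl⟩
    · exact .inl (mul_mem hb (by simpa [zpow_mul, pow_two] using zpow_mem s j))
    · exact .inr ⟨b * (x * x) ^ j, mul_mem hb (zpow_mem s j), by simp [zpow_add, zpow_mul, pow_two, mul_assoc]⟩
  have := (Set.ncard_le_ncard this).trans (Set.ncard_union_le _ _)
  rw [Set.ncard_image_of_injective _ (mul_left_injective x)] at this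
  rw [two_mul]
  exact this

theorem ex_inv (h : ES Q z) (hz : z ∈ B) (hB : B ≤ D) (hD : D ≤ Q) (c : 4 * #B < #D) : ∃ x ∈ D, x ∉ B ∧ x * x = 1 := by
  by_contra! k
  have s : ∀ x ∈ D, x ∉ B → x * x = z := fun x a b => (h.mem_zp.1 (h.sq_mem (hD a))).resolve_left (k x a b)
  have ex : ∀ A : Subgroup G, #A < #D → ∃ x ∈ D, x ∉ A := fun A l => by
    by_contra! m
    exact l.not_ge (card_le_of_le m)
  obtain ⟨x, xD, xB⟩ := ex B (by omega)
  have c1 := card_adj h hz (hB.trans hD) (hD xD) xB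
  obtain ⟨y, yD, yB⟩ := ex (B ⊔ zpowers x) (by omega)
  have c2 := card_adj h (mem_sup_left hz) (sup_le (hB.trans hD) (zpowers_le_of_mem (hD xD))) (hD yD) yB
  obtain ⟨w, wD, wB⟩ := ex (B ⊔ zpowers x ⊔ zpowers y) (by omega)
  have mx : x ∈ B ⊔ zpowers x := mem_sup_right (mem_zpowers x)
  have my : y ∈ B ⊔ zpowers x ⊔ zpowers y := mem_sup_right (mem_zpowers y)
  have nw : ∀ u ∈ B ⊔ zpowers x ⊔ zpowers y, u * w ∉ B := fun u a b =>
    wB ((mul_mem_cancel_left a).1 (mem_sup_left (mem_sup_left b)))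
  have y0 : y ∉ B := fun a => yB (mem_sup_left a)
  have w0 : w ∉ B := by simpa using nw 1 (one_mem _)
  have xy : x * y ∉ B := fun a => yB ((mul_mem_cancel_left mx).1 (mem_sup_left a))
  have cm : ∀ a ∈ D, ∀ b ∈ D, a ∉ B → b ∉ B → a * b ∉ B → ⁅b, a⁆ = z := fun a a1 b b1 a2 b2 m => by
    have := h.sq_mul (hD a1) (hD b1)
    rwa [s a a1 a2, s b b1 b2, s _ (mul_mem a1 b1) m, h.zz, one_mul, eq_comm] at this
  have e := cm _ (mul_mem xD yD) w wD xy w0 (nw _ (mul_mem (mem_sup_left mx) my))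
  rw [h.comm_symm (hD (mul_mem xD yD)) (hD wD), h.comm_mul (hD xD) (hD yD) (hD wD), h.comm_symm (hD wD) (hD xD),
    h.comm_symm (hD wD) (hD yD), cm x xD w wD xB w0 (nw _ (mem_sup_left mx)), cm y yD w wD y0 w0 (nw _ my), h.zz] at e
  exact h.z1 e.symm

end

theorem x4 : X4 := fun G _ _ z h D hD hz c => by
  by_contra! k
  have E := h.es
  obtain ⟨A, ⟨a1, a2, a3⟩, m⟩ := wellFounded_gt.has_min {A : Subgroup G | A ≤ D ∧ (∀ a ∈ A, a * a = 1) ∧ z ∉ A}
    ⟨⊥, bot_le, by simp, by simpa using E.z1⟩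
  have c4 : #A ≤ 4 := pure_le h fun x a b => ⟨a2 x a, b, fun e => a3 (k x (a1 a) e ▸ a)⟩
  have zA : zpowers z ≤ C(A) := zpowers_le_of_mem fun a ha => mem_cent1.1 (E.le_cent (hD (a1 ha)))
  have c8 := Nat.le_of_dvd (Nat.mul_pos Nat.card_pos Nat.card_pos) (card_sup_dvd (zA.trans (cent_le_norm A)))
  rw [E.card_zp] at c8
  have zB : z ∈ A ⊔ zpowers z := mem_sup_right (mem_zpowers z)
  have BD : A ⊔ zpowers z ≤ D := sup_le a1 (zpowers_le_of_mem hz)
  have c1 := E.card_cent zB (BD.trans hD)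
  have c2 := card_inf_mul_relIndex C(A ⊔ zpowers z) (Qo z)
  have c3 := card_inf_mul_relIndex C(A ⊔ zpowers z) D
  have c5 : C(A ⊔ zpowers z).relIndex D ≤ C(A ⊔ zpowers z).relIndex (Qo z) :=
    relIndex_le_of_le_right hD (by rintro e; rw [e, mul_zero] at c2; exact Nat.card_pos.ne c2)
  have c6 : C(A ⊔ zpowers z).relIndex (Qo z) ≤ 4 := by
    rw [inf_comm, ← c2] at c1
    have := Nat.card_pos (α := (C(A ⊔ zpowers z) ⊓ Qo z :))
    nlinarith
  obtain ⟨x, ⟨x1, x2⟩, x3, x4⟩ := ex_inv (D := C(A ⊔ zpowers z) ⊓ D) E zB (le_inf (by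
    rw [cent_sup, cent_zpowers]
    exact sup_le (le_inf (comm_of_sq a2) ((a1.trans hD).trans E.le_cent)) (le_inf zA (E.zp_le.trans E.le_cent))) BD)
    (inf_le_right.trans hD) (by nlinarith)
  have xA : x ∈ C(A) := fun a ha => x1 a (mem_sup_left ha)
  have mem : ∀ y ∈ A ⊔ zpowers x, ∃ a ∈ A, y = a ∨ y = a * x := fun y hy => by
    obtain ⟨a, ha, b, hb, rfl⟩ := (mem_sup_of_norm ((zpowers_le_of_mem xA).trans (cent_le_norm A))).1 hy
    exact ⟨a, ha, ((mem_zpowers_inv x4).1 hb).imp (by rintro rfl; exact mul_one a) (by rintro rfl; rfl)⟩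
  refine m (A ⊔ zpowers x) ⟨sup_le a1 (zpowers_le_of_mem x2), fun y hy => ?_, fun hy => ?_⟩
    (left_lt_sup.2 fun l => x3 (mem_sup_left (l (mem_zpowers x))))
  · obtain ⟨a, ha, rfl | rfl⟩ := mem y hy
    · exact a2 _ ha
    · rw [mul_assoc, ← mul_assoc x, ← xA a ha, mul_assoc, x4, mul_one, a2 a ha]
  · obtain ⟨a, ha, e | e⟩ := mem z hy
    · exact a3 (e ▸ ha)
    · exact x3 ((mul_mem_cancel_left (mem_sup_left ha)).1 (e ▸ zB))

theorem fpf : FPF := fun G _ _ z w g h wz c1 c2 gz gw o k => by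
  obtain ⟨𝒜, c, -⟩ := cx h
  have r := IsConj.refl z
  have nQ : w ∉ Qo z := fun a => by
    rcases h.es.mem_zp.1 (k ⟨a, mem_cent1_symm.1 gw⟩) with e | rfl
    exacts [ne1 h c1 e, ne1 h c2 h.es.zz]
  rcases c.kind r wz nQ (sq h c1) with ⟨E, a, zE, m⟩ | ⟨s, s1, s2, s3, -, s4, -⟩
  · have gE := zpowers_le_of_mem ((c.ark a).e2 z zE r w m nQ ⟨gz, gw⟩)
    have gQ := zpowers_le_of_mem (h.le.norm gz)
    have wE := (c.ark a).e3 z zE r w m nQ (sq h c1)
    obtain ⟨d, hd, e, he, we⟩ := (c.lc a).dec z zE r w m wE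
    obtain ⟨n, hn, l⟩ := exists_mul_mem_cent (A := zpowers g) (H := E ⊓ Qo z) (k := d)
      ((le_inf gE gQ).trans inf_normalizer_le_normalizer_inf)
      (by rw [(c.la a).cardW z zE r, Nat.card_zpowers]; exact (Nat.coprime_two_left.2 o).pow_left 9)
      (.inl (sol_zpowers g)) fun x hx => mem_inf.2 ⟨by
        have := conj_mem_of_norm (cent_le_norm E wE) (mul_mem (conj_mem_of_norm (gE hx) (inv_mem he)) he)
        rwa [eq_mul_inv_of_mul_eq we.symm, show x * (w * e⁻¹) * x⁻¹ * (w * e⁻¹)⁻¹ = x * w * (e⁻¹ * x⁻¹ * e * w⁻¹) by group,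
          mem_cent1.1 (zpowers_le_of_mem gw hx), show w * x * (e⁻¹ * x⁻¹ * e * w⁻¹) = w * (x * e⁻¹ * x⁻¹ * e) * w⁻¹ by group],
        mul_mem (conj_mem_of_norm (gQ hx) hd.1) (inv_mem (mem_inf.1 hd).1)⟩
    rw [cent_zpowers] at l
    have dE := (mul_mem_cancel_left (mem_inf.1 hn).1).1 (zpowers_le_of_mem zE (k ⟨mul_mem (mem_inf.1 hn).2 (mem_inf.1 hd).1, l⟩))
    exact ((c.la a).hyp z zE r w (we ▸ mul_mem dE he) nQ).1 c1 c2
  · exact (h.es.mem_zp.1 (k ⟨s2, mem_cent1_symm.1 (s4 ⟨gz, gw⟩)⟩)).elim (ne1 h s1) s3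

theorem ru : RU := fun G _ _ z v g h p => by
  obtain ⟨𝒜, c, -⟩ := cx h
  have r := IsConj.refl z
  have gz := mem_cent1.2 p.ga
  have k : Qo z ⊓ C[g] ≤ zpowers z := fun x hx => by
    obtain ⟨⟨f, R, M⟩, -⟩ := h
    obtain ⟨γ, a, e⟩ := A_odd (f := f) (n := 13) (by decide) gz (p.og ▸ pow_orderOf_eq_one g)
    obtain ⟨u, b⟩ := M.tot x hx.1
    refine (M.rk b).2 (by_contra fun n => (fx γ u ((M.uniq (M.act a b) b).2 (.inl ?_)) n).1 ?_)
    · rw [← mem_cent1.1 hx.2, mul_inv_cancel_right]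
    · have := Fact.mk (by norm_num : Nat.Prime 13)
      refine orderOf_eq_prime e ?_
      rintro rfl
      have := orderOf_dvd_of_pow_eq_one (M.le.es.pow4 ((M.aker a).2 (one_mem _)))
      rw [p.og] at this
      norm_num at this
  have nQ : v ∉ Qo z := fun a => (h.es.mem_zp.1 (k ⟨a, mem_cent1.2 p.gv.symm⟩)).elim p.v1 p.va
  rcases c.kind r (mem_cent1.2 p.cm) nQ p.vv with ⟨E, a, zE, m⟩ | ⟨s, s1, s2, s3, -, s4, -⟩
  · have gW : g ∈ N(E ⊓ Qo z) := inf_normalizer_le_normalizer_inf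
      ⟨(c.ark a).e2 z zE r v m nQ ⟨gz, mem_cent1.2 p.gv⟩, h.le.norm gz⟩
    have cW := (c.la a).cardW z zE r
    have := Fact.mk (by norm_num : Nat.Prime 13)
    have o : orderOf ((E ⊓ Qo z).normalizerMonoidHom ⟨g, gW⟩) = 13 := orderOf_eq_prime (by
      rw [← map_pow, ← p.og, ← orderOf_mk g gW, pow_orderOf_eq_one, map_one]) fun e => by
      have e : g ∈ C(E ⊓ Qo z) := (E ⊓ Qo z).normalizerMonoidHom_ker.le e
      have := card_le_of_le (fun x hx => k ⟨hx.2, mem_cent1.2 (e x hx)⟩ : E ⊓ Qo z ≤ zpowers z)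
      rw [cW, h.es.card_zp] at this
      omega
    obtain ⟨d, d1, d2, d3⟩ := H21.exists_lt_card_modEq_of_dvd_card_mulAut (G := (E ⊓ Qo z :)) (r := 13)
      (o ▸ _root_.orderOf_dvd_natCard _)
    rw [cW] at d1 d2 d3
    obtain ⟨j, hj, rfl⟩ := (Nat.dvd_prime_pow Nat.prime_two).1 d1
    interval_cases j <;> simp [Nat.ModEq] at d2 d3
  · exact (h.es.mem_zp.1 (k ⟨s2, mem_cent1_symm.1 (s4 ⟨gz, mem_cent1.2 p.gv⟩)⟩)).elim (ne1 h s1) s3

end H0.PA
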