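/-
Orthogonal Phan systems I: a covering lemma and the geometry of unit vectors in a Euclidean space.
-/
import Cfsg.Agent.H17.XI

set_option autoImplicit false
set_option linter.unusedSectionVars false

namespace H0.X
open Module Submodule Relation

/-- paths inside the common neighbours of `x` and `z` -/
def Pth {X : Type*} (A : X → X → Prop) (x z : X) : X → X → Prop :=
  ReflTransGen fun u v => A u v ∧ A z u ∧ A x u ∧ A z v ∧ A x v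

/-- simple connectivity of a graph of diameter two, in group-theoretic form -/
theorem gc {P X : Type*} [Group P] [MulAction P X] {x₀ : X} {A : X → X → Prop}
    {Δ Γ : Subgroup P} {D : Set P} (hD : ∀ d ∈ D, d ∈ Γ) (hA : ∀ g ∈ Γ, ∀ x y, A x y → A (g • x) (g • y))
    (As : ∀ x y, A x y → A y x) (di : ∀ d ∈ D, d⁻¹ ∈ D) (dl : ∀ δ ∈ Δ, ∀ d ∈ D, δ * d ∈ D)
    (da : ∀ d ∈ D, A x₀ (d • x₀)) (ex : ∀ y, A x₀ y → ∃ d ∈ D, d • x₀ = y)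
    (un : ∀ d ∈ D, ∀ d' ∈ D, d • x₀ = d' • x₀ → d⁻¹ * d' ∈ Δ)
    (tri : ∀ d ∈ D, ∀ d' ∈ D, A (d • x₀) (d' • x₀) → d⁻¹ * d' ∈ D)
    (g2 : ∀ y z, A y z → ∃ u, A x₀ u ∧ A y u ∧ A z u)
    (g4 : ∀ z y y', A x₀ y → A z y → A x₀ y' → A z y' →
      ReflTransGen (fun u v => (A u v ∨ Pth A u v x₀ z) ∧ A z u ∧ A x₀ u ∧ A z v ∧ A x₀ v) y y') (ne : D.Nonempty)
    {γ : P} (hγ : γ ∈ Subgroup.closure (Δ ∪ D)) (h : γ • x₀ = x₀) : γ ∈ Δ := by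
  have dr : ∀ δ ∈ Δ, ∀ d ∈ D, d * δ ∈ D := fun δ hδ d hd => by simpa using di _ (dl _ (inv_mem hδ) _ (di d hd))
  let R : X → X → X → Prop := fun z u v => ∀ d₁ ∈ D, ∀ d₂ ∈ D, ∀ e₁ ∈ D, ∀ e₂ ∈ D, d₁ • x₀ = u → e₁ • x₀ = v →
    (d₁ * d₂) • x₀ = z → (e₁ * e₂) • x₀ = z → (d₁ * d₂)⁻¹ * (e₁ * e₂) ∈ Δ
  have r0 : ∀ z u, R z u u := fun z u d₁ h1 d₂ h2 e₁ h3 e₂ h4 a b c e => by
    have := un _ h2 _ (dl _ (un _ h1 _ h3 (a.trans b.symm)) _ h4) (by rw [mul_assoc, mul_smul, e, ← c, mul_smul, inv_smul_smul])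
    simpa [mul_assoc] using this
  have sx : ∀ z u, A z u → A x₀ u → ∃ d₁ ∈ D, ∃ d₂ ∈ D, d₁ • x₀ = u ∧ (d₁ * d₂) • x₀ = z := fun z u a b => by
    obtain ⟨d, hd, rfl⟩ := ex u b
    obtain ⟨e, he, k⟩ := ex (d⁻¹ • z) (by simpa using hA _ (inv_mem (hD _ hd)) _ _ (As _ _ a))
    exact ⟨d, hd, e, he, rfl, by rw [mul_smul, k, smul_inv_smul]⟩
  have rt : ∀ z u v w, A z v → A x₀ v → R z u v → R z v w → R z u w :=
    fun z u v w a b r s d₁ h1 d₂ h2 e₁ h3 e₂ h4 k1 k2 k3 k4 => by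
      obtain ⟨f, hf, f', hf', c1, c2⟩ := sx z v a b
      simpa [mul_assoc] using mul_mem (r _ h1 _ h2 _ hf _ hf' k1 c1 k3 c2) (s _ hf _ hf' _ h3 _ h4 c1 k2 c2 k4)
  have r1 : ∀ z u v, A u v → A z u → R z u v := fun z u v a b d₁ h1 d₂ h2 e₁ h3 e₂ h4 k1 k2 k3 k4 => by
    subst k1 k2
    have := tri _ (di _ (tri _ h1 _ h3 a)) _ h4 (by simpa [mul_smul, ← k4] using hA _ (inv_mem (hD _ h3)) _ _ (As _ _ b))
    simpa [mul_assoc] using r0 z _ _ h1 _ h2 _ h1 _ this rfl rfl k3 (by simpa [mul_assoc] using k4)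
  have r2 : ∀ z u v, Pth A x₀ z u v → R z u v := fun z u v p => by
    induction p with
    | refl => exact r0 _ _
    | tail _ b ih => exact rt _ _ _ _ b.2.1 b.2.2.1 ih (r1 _ _ _ b.1 b.2.1)
  have r3 : ∀ z u v, A z v → Pth A u v x₀ z → R z u v := fun z u v a p d₁ h1 d₂ h2 e₁ h3 e₂ h4 k1 k2 k3 k4 => by
    subst k1 k2
    have g := inv_mem (hD _ h1)
    obtain ⟨f, hf, k⟩ := ex ((d₁ * d₂)⁻¹ • e₁ • x₀) (by
      simpa [← k3, -mul_inv_rev] using hA _ (inv_mem (mul_mem (hD _ h1) (hD _ h2))) _ _ a)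
    have := r2 (d₁⁻¹ • e₁ • x₀) _ _ (p.lift (d₁⁻¹ • ·) fun a b c => ⟨hA _ g _ _ c.1, hA _ g _ _ c.2.1,
      by simpa using hA _ g _ _ c.2.2.1, hA _ g _ _ c.2.2.2.1, by simpa using hA _ g _ _ c.2.2.2.2⟩)
      _ (di _ h1) _ h3 _ h2 _ hf rfl (by simp [← k3, mul_smul]) (mul_smul _ _ _) (by simp [mul_smul, k])
    simpa [mul_assoc] using r0 z _ _ h3 _ (dl _ this _ (di _ hf)) _ h3 _ h4 rfl rfl (by simpa [mul_assoc] using k3) k4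
  have k1 : ∀ d₁ ∈ D, ∀ d₂ ∈ D, ∀ e₁ ∈ D, ∀ e₂ ∈ D, (d₁ * d₂) • x₀ = (e₁ * e₂) • x₀ →
      (d₁ * d₂)⁻¹ * (e₁ * e₂) ∈ Δ := fun d₁ h1 d₂ h2 e₁ h3 e₂ h4 e => by
    have a : ∀ d₁ ∈ D, ∀ d₂ ∈ D, A ((d₁ * d₂) • x₀) (d₁ • x₀) := fun d₁ h1 d₂ h2 => by
      rw [mul_smul]; exact hA _ (hD _ h1) _ _ (As _ _ (da _ h2))
    have p := g4 _ _ _ (da _ h1) (a _ h1 _ h2) (da _ h3) (e ▸ a _ h3 _ h4)
    refine (?_ : R _ _ _) _ h1 _ h2 _ h3 _ h4 rfl rfl rfl e.symm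
    generalize e₁ • x₀ = y at p
    induction p with
    | refl => exact r0 _ _
    | tail _ b ih => exact rt _ _ _ _ b.2.1 b.2.2.1 ih (b.1.elim (r1 _ _ _ · b.2.1) (r3 _ _ _ b.2.2.2.1))
  have k2 : ∀ γ ∈ Subgroup.closure (Δ ∪ D), ∃ d₁ ∈ D, ∃ d₂ ∈ D, γ = d₁ * d₂ := fun γ hγ => by
    have m : ∀ g ∈ (Δ : Set P) ∪ D, ∀ d₁ ∈ D, ∀ d₂ ∈ D, ∃ e₁ ∈ D, ∃ e₂ ∈ D, d₁ * d₂ * g = e₁ * e₂ := by
      rintro g (hg | hg) d₁ h1 d₂ h2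
      · exact ⟨d₁, h1, _, dr g hg _ h2, mul_assoc _ _ _⟩
      obtain ⟨u, a1, a2, a3⟩ := g2 _ _ (hA _ (mul_mem (hD _ h1) (hD _ h2)) _ _ (da _ hg))
      obtain ⟨e₁, h3, e₂, h4, rfl, e⟩ := sx _ _ a2 a1
      have t := dr _ (k1 e₁ h3 e₂ h4 d₁ h1 d₂ h2 e) _ h4
      have := tri _ (di _ t) _ hg (by
        simpa [mul_smul] using hA _ (inv_mem (mul_mem (hD _ h1) (hD _ h2))) _ _ (As _ _ a3))
      exact ⟨e₁, h3, _, this, by group⟩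
    induction hγ using Subgroup.closure_induction_right with
    | one => obtain ⟨d, hd⟩ := ne; exact ⟨d, hd, _, di d hd, by simp⟩
    | mul_right x _ g hg ih => obtain ⟨d₁, h1, d₂, h2, rfl⟩ := ih; exact m g hg d₁ h1 d₂ h2
    | mul_inv_cancel x _ g hg ih =>
      obtain ⟨d₁, h1, d₂, h2, rfl⟩ := ih
      exact m _ (hg.imp (fun h => inv_mem h) (di g)) d₁ h1 d₂ h2
  obtain ⟨d₁, h1, d₂, h2, rfl⟩ := k2 γ hγ
  simpa using k1 d₁ h1 _ (di _ h1) d₁ h1 d₂ h2 (by simp [h])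

variable {F : Type} [Field F] {ι : Type} [Fintype ι] {N U : Submodule F (ι → F)} {x y z u v : ι → F}

/-- non-degenerate subspaces -/
def Nd (N : Submodule F (ι → F)) : Prop := ∀ x ∈ N, (∀ y ∈ N, x ⬝ᵥ y = 0) → x = 0

/-- the part of `N` orthogonal to `x` -/
def pp (N : Submodule F (ι → F)) (x : ι → F) : Submodule F (ι → F) := N ⊓ LinearMap.ker (dotProductBilin F F x)

theorem mem_pp : y ∈ pp N x ↔ y ∈ N ∧ x ⬝ᵥ y = 0 := Iff.rfl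
theorem pp_le : pp N x ≤ N := inf_le_left

theorem rk_pp (N : Submodule F (ι → F)) (x : ι → F) : finrank F N ≤ finrank F (pp N x) + 1 := by
  have h1 := finrank_sup_add_finrank_inf_eq N (LinearMap.ker (dotProductBilin F F x))
  have h2 := (dotProductBilin F F x).finrank_range_add_finrank_ker
  have h3 := (finrank_le (LinearMap.range (dotProductBilin F F x))).trans (finrank_self F).le
  have h4 := finrank_le (N ⊔ LinearMap.ker (dotProductBilin F F x))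
  unfold pp; omega

theorem Nd.pp (h : Nd N) (hx : x ∈ N) (x0 : x ⬝ᵥ x ≠ 0) : Nd (pp N x) := fun y hy k => h y hy.1 fun w hw => by
  have e : y ⬝ᵥ x = 0 := (dotProduct_comm _ _).trans (mem_pp.1 hy).2
  simpa [e] using k (w - ((x ⬝ᵥ w) / (x ⬝ᵥ x)) • x) (mem_pp.2 ⟨sub_mem hw (smul_mem _ _ hx), by simp [x0]⟩)

theorem Nd.rk {R : Submodule F (ι → F)} (h : Nd N) (hU : U ≤ N) (hR : R ≤ N) (k : ∀ x ∈ U, ∀ y ∈ R, x ⬝ᵥ y = 0) :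
    finrank F U + finrank F R ≤ finrank F N := by
  let B : LinearMap.BilinForm F N := LinearMap.BilinForm.restrict (dotProductBilin F F) N
  have hr : B.IsRefl := fun x y e => (dotProduct_comm _ _).trans e
  have h1 := LinearMap.BilinForm.finrank_add_finrank_orthogonal hr (U.comap N.subtype)
  have h2 : U.comap N.subtype ⊓ B.orthogonal ⊤ = ⊥ := eq_bot_iff.2 fun x hx =>
    Subtype.ext (h x x.2 fun y hy => hr _ _ (hx.2 ⟨y, hy⟩ trivial))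
  have h3 := finrank_mono (show R.comap N.subtype ≤ B.orthogonal (U.comap N.subtype) from fun y hy x hx => k _ hx _ hy)
  rw [h2, finrank_bot, (comapSubtypeEquivOfLe hU).finrank_eq] at h1
  rw [(comapSubtypeEquivOfLe hR).finrank_eq] at h3
  omega

variable [Finite F] (h2 : (2 : F) ≠ 0)
include h2

theorem sing (h : ∀ x ∈ U, x ⬝ᵥ x = 0) (hx : x ∈ U) (hy : y ∈ U) : x ⬝ᵥ y = 0 := by
  have := h _ (add_mem hx hy)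
  simp only [dotProduct_add, add_dotProduct, h x hx, h y hy, dotProduct_comm y x] at this
  exact mul_left_cancel₀ h2 (by linear_combination this)

theorem Nd.unit (h : Nd N) (hU : U ≤ N) (k : finrank F N + 2 ≤ 2 * finrank F U) : ∃ u ∈ U, u ⬝ᵥ u = 1 := by
  by_cases h0 : ∀ x ∈ U, x ⬝ᵥ x = 0
  · have := h.rk hU hU fun x hx y hy => sing h2 h0 hx hy; omega
  push Not at h0
  obtain ⟨x, hx, x0⟩ := h0
  by_cases h1 : ∀ y ∈ X.pp U x, y ⬝ᵥ y = 0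
  · have := h.rk hU ((pp_le (x := x)).trans hU) fun w hw y hy => by
      simpa [(mem_pp.1 hy).2] using sing h2 h1 (x := w - ((x ⬝ᵥ w) / (x ⬝ᵥ x)) • x)
        (mem_pp.2 ⟨sub_mem hw (smul_mem _ _ hx), by simp [x0]⟩) hy
    have := rk_pp U x
    omega
  push Not at h1
  obtain ⟨y, hy, y0⟩ := h1
  obtain ⟨a, b, e⟩ := H12.exists_sq_add_sq h2 x0 y0 1
  refine ⟨a • x + b • y, add_mem (smul_mem _ _ hx) (smul_mem _ _ hy.1), ?_⟩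
  simp only [dotProduct_add, add_dotProduct, smul_dotProduct, dotProduct_smul, dotProduct_comm y x, (mem_pp.1 hy).2,
    smul_eq_mul]
  linear_combination e

variable (N) in
/-- orthogonal unit vectors -/
def Ad (x y : ι → F) : Prop := x ∈ N ∧ y ∈ N ∧ x ⬝ᵥ x = 1 ∧ y ⬝ᵥ y = 1 ∧ x ⬝ᵥ y = 0

omit h2 in
theorem Ad.symm (h : Ad N x y) : Ad N y x := ⟨h.2.1, h.1, h.2.2.2.1, h.2.2.1, (dotProduct_comm _ _).trans h.2.2.2.2⟩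

theorem c2 (h : Nd N) (k : 5 ≤ finrank F N) (hu : u ∈ N) (u1 : u ⬝ᵥ u = 1) (v : ι → F) :
    ∃ w, Ad N u w ∧ v ⬝ᵥ w = 0 := by
  have := rk_pp N u
  have := rk_pp (pp N u) v
  obtain ⟨w, hw, w1⟩ := (h.pp hu (by simp [u1])).unit h2 (pp_le (x := v)) (by omega)
  exact ⟨w, ⟨hu, hw.1.1, u1, w1, hw.1.2⟩, hw.2⟩

omit h2 in
theorem pr (h : Nd N) (hu : u ∈ N) (hv : v ∈ N) (u1 : u ⬝ᵥ u = 1) (v1 : v ⬝ᵥ v = 1) (k : (u ⬝ᵥ v) ^ 2 ≠ 1) :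
    ∃ M, Nd M ∧ finrank F N ≤ finrank F M + 2 ∧ ∀ w, w ∈ M ↔ w ∈ N ∧ u ⬝ᵥ w = 0 ∧ v ⬝ᵥ w = 0 := by
  have := rk_pp N u
  have := rk_pp (pp N u) (v - (u ⬝ᵥ v) • u)
  refine ⟨_, (h.pp hu (by simp [u1])).pp (x := v - (u ⬝ᵥ v) • u) (mem_pp.2 ⟨sub_mem hv (smul_mem _ _ hu), by simp [u1]⟩)
    fun e => k ?_, by omega, fun w => ?_⟩
  · simp only [dotProduct_sub, sub_dotProduct, smul_dotProduct, dotProduct_smul, dotProduct_comm v u, u1, v1, smul_eq_mul] at e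
    linear_combination -e
  · simp +contextual [mem_pp, and_assoc]

theorem c0 (h : Nd N) (k4 : 4 ≤ finrank F N) (hu : u ∈ N) (hv : v ∈ N) (u1 : u ⬝ᵥ u = 1) (v1 : v ⬝ᵥ v = 1)
    (k : (u ⬝ᵥ v) ^ 2 ≠ 1) : ∃ w, Ad N u w ∧ Ad N v w := by
  obtain ⟨M, m1, m2, m3⟩ := pr h hu hv u1 v1 k
  obtain ⟨w, hw, w1⟩ := m1.unit h2 le_rfl (by omega)
  have := (m3 w).1 hw
  exact ⟨w, ⟨hu, this.1, u1, w1, this.2.1⟩, hv, this.1, v1, w1, this.2.2⟩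

variable (hb : ∃ b : F, b ≠ 0 ∧ b ^ 2 ≠ 1)
include hb

theorem trick {r : ι → F} (hu : ∃ w ∈ U, w ⬝ᵥ w = 1) (hr : r ∈ U) (r0 : r ⬝ᵥ r = 0) :
    ∃ w ∈ U, w ⬝ᵥ w = 1 ∧ (r ⬝ᵥ w) ^ 2 ≠ 1 := by
  obtain ⟨w, hw, w1⟩ := hu
  by_cases e : r ⬝ᵥ w = 0
  · exact ⟨w, hw, w1, by simp [e]⟩
  obtain ⟨b, b0, b1⟩ := hb
  refine ⟨(b / (r ⬝ᵥ w)) • w + ((1 - (b / (r ⬝ᵥ w)) ^ 2) / (2 * b)) • r, add_mem (smul_mem _ _ hw) (smul_mem _ _ hr), ?_, ?_⟩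
  · simp only [dotProduct_add, add_dotProduct, smul_dotProduct, dotProduct_smul, dotProduct_comm w r, w1, r0, smul_eq_mul]
    field_simp; ring
  · simpa [r0, e] using b1

omit h2 hb in
theorem res (u1 : u ⬝ᵥ u = 1) (v1 : v ⬝ᵥ v = 1) (k : (u ⬝ᵥ v) ^ 2 = 1) :
    (v - (u ⬝ᵥ v) • u) ⬝ᵥ (v - (u ⬝ᵥ v) • u) = 0 := by
  simp only [dotProduct_sub, sub_dotProduct, smul_dotProduct, dotProduct_smul, dotProduct_comm v u, u1, v1, smul_eq_mul]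
  linear_combination -k

theorem conn (h : Nd N) (k4 : 4 ≤ finrank F N) (hu : u ∈ N) (hv : v ∈ N) (u1 : u ⬝ᵥ u = 1) (v1 : v ⬝ᵥ v = 1) :
    ReflTransGen (Ad N) u v := by
  have k : ∀ u ∈ N, u ⬝ᵥ u = 1 → (u ⬝ᵥ v) ^ 2 ≠ 1 → ReflTransGen (Ad N) u v := fun u hu u1 k =>
    let ⟨_, a, b⟩ := c0 h2 h k4 hu hv u1 v1 k
    .head a (.single b.symm)
  by_cases e : (u ⬝ᵥ v) ^ 2 = 1
  swap; · exact k u hu u1 e
  have := rk_pp N u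
  obtain ⟨w, hw, w1, w2⟩ := trick h2 hb ((h.pp hu (by simp [u1])).unit h2 le_rfl (by omega))
    (mem_pp.2 ⟨sub_mem hv (smul_mem _ _ hu), by simp [u1]⟩) (res u1 v1 e)
  exact .head ⟨hu, hw.1, u1, w1, hw.2⟩ (k w hw.1 w1 (by simpa [(mem_pp.1 hw).2, dotProduct_comm w v] using w2))

theorem pth (h : Nd N) (k6 : 6 ≤ finrank F N) (a : Ad N x u) (b : Ad N z u) (c : Ad N x v) (d : Ad N z v)
    (k : (x ⬝ᵥ z) ^ 2 ≠ 1) : Pth (Ad N) x z u v := by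
  obtain ⟨M, m1, m2, m3⟩ := pr h a.1 b.1 a.2.2.1 b.2.2.1 k
  refine (conn h2 hb m1 (by omega) ((m3 u).2 ⟨a.2.1, a.2.2.2.2, b.2.2.2.2⟩) ((m3 v).2 ⟨c.2.1, c.2.2.2.2, d.2.2.2.2⟩)
    a.2.2.2.1 c.2.2.2.1).lift id fun p q e => ?_
  have hp := (m3 p).1 e.1
  have hq := (m3 q).1 e.2.1
  exact ⟨⟨hp.1, hq.1, e.2.2⟩, ⟨b.1, hp.1, b.2.2.1, e.2.2.1, hp.2.2⟩, ⟨a.1, hp.1, a.2.2.1, e.2.2.1, hp.2.1⟩,
    ⟨b.1, hq.1, b.2.2.1, e.2.2.2.1, hq.2.2⟩, a.1, hq.1, a.2.2.1, e.2.2.2.1, hq.2.1⟩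

theorem quad (h : Nd N) (k6 : 6 ≤ finrank F N) (a : Ad N x u) (b : Ad N z u) (c : Ad N x v) (d : Ad N z v) :
    ReflTransGen (fun u v => (Ad N u v ∨ Pth (Ad N) u v x z) ∧ Ad N z u ∧ Ad N x u ∧ Ad N z v ∧ Ad N x v) u v := by
  by_cases e : (x ⬝ᵥ z) ^ 2 = 1
  swap; · exact (pth h2 hb h k6 a b c d e).lift id fun _ _ k => ⟨.inl k.1, k.2⟩
  by_cases e' : (v ⬝ᵥ u) ^ 2 = 1
  swap; · exact .single ⟨.inr (pth h2 hb h k6 a.symm c.symm b.symm d.symm (dotProduct_comm u v ▸ e')), b, a, d, c⟩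
  obtain ⟨M, m1, m2, m3⟩ := pr h c.1 c.2.1 c.2.2.1 c.2.2.2.1 (by simp [c.2.2.2.2])
  have := rk_pp M z
  obtain ⟨w, hw, w1, w2⟩ := trick h2 hb (m1.unit h2 (pp_le (x := z)) (by omega))
    (mem_pp.2 ⟨(m3 _).2 ⟨sub_mem a.2.1 (smul_mem _ _ c.2.1), by simp [a.2.2.2.2, c.2.2.2.2], by simp [c.2.2.2.1]⟩,
      by simp [b.2.2.2.2, d.2.2.2.2]⟩) (res c.2.2.2.1 a.2.2.2.1 e')
  have hw' := (m3 w).1 hw.1
  have a' : Ad N x w := ⟨a.1, hw'.1, a.2.2.1, w1, hw'.2.1⟩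
  have b' : Ad N z w := ⟨b.1, hw'.1, b.2.2.1, w1, hw.2⟩
  exact .head ⟨.inr (pth h2 hb h k6 a.symm a'.symm b.symm b'.symm (by simpa [hw'.2.2] using w2)), b, a, b', a'⟩
    (.single ⟨.inl (Ad.symm ⟨c.2.1, hw'.1, c.2.2.2.1, w1, hw'.2.2⟩), b', a', d, c⟩)

omit hb in
theorem three (h : Nd N) (k6 : 6 ≤ finrank F N) (a : Ad N y z) (x : ι → F) : ∃ u, x ⬝ᵥ u = 0 ∧ Ad N y u ∧ Ad N z u := by
  obtain ⟨M, m1, m2, m3⟩ := pr h a.1 a.2.1 a.2.2.1 a.2.2.2.1 (by simp [a.2.2.2.2])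
  have := rk_pp M x
  obtain ⟨w, hw, w1⟩ := m1.unit h2 (pp_le (x := x)) (by omega)
  have hw' := (m3 w).1 hw.1
  exact ⟨w, hw.2, ⟨a.1, hw'.1, a.2.2.1, w1, hw'.2.1⟩, a.2.1, hw'.1, a.2.2.2.1, w1, hw'.2.2⟩

end H0.X
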