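/-
Orthogonal Phan systems II: transitivity, generation and the inductive step.
-/
import Cfsg.Agent.H0.XG1
import Cfsg.Agent.H12.OmegaExt

set_option autoImplicit false
set_option linter.unusedSectionVars false

namespace H0.X
open Module Submodule Relation H17.X H12

variable {F : Type} [Field F] {s t : Finset (Fin 7)} {a b c d : Fin 7} {g : OO F} {u v : Fin 7 → F}

variable (F) in
/-- vectors supported on `s` -/
def Ws (s : Finset (Fin 7)) : Submodule F (Fin 7 → F) := .pi (s : Set (Fin 7))ᶜ fun _ => ⊥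

theorem mem_Ws : v ∈ Ws F s ↔ ∀ k ∉ s, v k = 0 := by simp [Ws, mem_pi]
theorem e_dot (k : Fin 7) (v : Fin 7 → F) : ee F k ⬝ᵥ v = v k := by simp [ee]
theorem e_app (k l : Fin 7) : ee F k l = if l = k then 1 else 0 := by simp [ee, Pi.single_apply]
theorem e_one (k : Fin 7) : ee F k ⬝ᵥ ee F k = 1 := by simp [ee]
theorem e_mem (h : a ∈ s) : ee F a ∈ Ws F s := mem_Ws.2 fun k hk => Pi.single_eq_of_ne (by rintro rfl; exact hk h) _
theorem Ws_erase (h : v ∈ Ws F s) (h' : ee F a ⬝ᵥ v = 0) : v ∈ Ws F (s.erase a) := mem_Ws.2 fun k hk => by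
  by_cases e : k = a
  · rw [e, ← e_dot a v, h']
  · exact mem_Ws.1 h k fun h => hk (Finset.mem_erase.2 ⟨e, h⟩)
theorem nd_Ws : Nd (Ws F s) := fun x hx h => funext fun k => by
  by_cases hk : k ∈ s
  · rw [← e_dot k x, dotProduct_comm, h _ (e_mem hk)]; rfl
  · exact mem_Ws.1 hx k hk
theorem rk_Ws : s.card ≤ finrank F (Ws F s) := by
  simpa using (LinearIndependent.of_comp (v := fun k : s => (⟨ee F k.1, e_mem k.2⟩ : Ws F s)) (Ws F s).subtype
    (by simpa [Function.comp_def, ee] using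
      (Pi.basisFun F (Fin 7)).linearIndependent.comp _ Subtype.val_injective)).fintype_card_le_finrank
theorem La_erase : g ∈ La F (s.erase a) ↔ g ∈ La F s ∧ g.1 (ee F a) = ee F a :=
  ⟨fun h => ⟨La_mono (s.erase_subset a) h, h.2 a (by simp)⟩, fun h => ⟨h.1.1, fun k hk => by
    by_cases e : k = a
    · rw [e, h.2]
    · exact h.1.2 k fun h => hk (Finset.mem_erase.2 ⟨e, h⟩)⟩⟩
theorem q7_dot (v : Fin 7 → F) : q7 F v = v ⬝ᵥ v := q7_apply F v
theorem q7_pol (u v : Fin 7 → F) : QuadraticMap.polar (q7 F) u v = 2 * u ⬝ᵥ v := by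
  simp only [QuadraticMap.polar, q7_dot, dotProduct_add, add_dotProduct, dotProduct_comm v u]; ring
theorem La_fix (hg : g ∈ La F s) (hv : v ∈ Ws F sᶜ) : g.1 v = v := by
  rw [← Finset.univ_sum_single v, map_sum]
  refine Finset.sum_congr rfl fun k _ => ?_
  by_cases h : k ∈ s
  · simp [mem_Ws.1 hv k (by simpa)]
  · rw [← mul_one (v k), ← smul_eq_mul, Pi.single_smul, map_smul]; exact congrArg _ (hg.2 k h)
theorem pm_mem {σ : Equiv.Perm (Fin 7)} (h : σ.IsThreeCycle) (hs : σ.support ⊆ s) : pm F σ ∈ La F s :=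
  ⟨Subgroup.commutator_mono le_top le_top ((Subgroup.map_commutator ⊤ ⊤ (pm F)).le ⟨σ,
    (alternatingGroup.commutator_perm_eq (by simp)).ge h.mem_alternatingGroup, rfl⟩),
    fun k hk => by rw [pm_ee, Equiv.Perm.notMem_support.1 fun e => hk (hs e)]⟩

variable [Finite F] (h2 : (2 : F) ≠ 0)
include h2

theorem dot_g (g : OO F) (u v : Fin 7 → F) : g.1 u ⬝ᵥ g.1 v = u ⬝ᵥ v :=
  mul_left_cancel₀ h2 (by rw [← q7_pol, ← q7_pol, orth_polar])
theorem La_Ws (hg : g ∈ La F s) (hv : v ∈ Ws F s) : g.1 v ∈ Ws F s :=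
  mem_Ws.2 fun k hk => by rw [← e_dot k (g.1 v), ← hg.2 k hk, dot_g h2, e_dot, mem_Ws.1 hv k hk]
theorem ad_g (hg : g ∈ La F s) (h : Ad (Ws F s) u v) : Ad (Ws F s) (g.1 u) (g.1 v) :=
  ⟨La_Ws h2 hg h.1, La_Ws h2 hg h.2.1, by simpa only [dot_g h2] using h.2.2⟩
theorem La_comm {h : OO F} (hg : g ∈ La F s) (hh : h ∈ La F t) (k : Disjoint s t) : Commute g h := by
  have m : ∀ {s t : Finset (Fin 7)}, Disjoint s t → Ws F s ≤ Ws F tᶜ := fun k v hv => mem_Ws.2 fun i hi =>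
    mem_Ws.1 hv i (Finset.disjoint_right.1 k (by simpa using hi))
  refine Subtype.ext (LinearEquiv.toLinearMap_injective ((Pi.basisFun F _).ext fun i => ?_))
  change g.1 (h.1 _) = h.1 (g.1 _)
  rw [Pi.basisFun_apply, ← ee]
  by_cases h1 : i ∈ s
  · rw [hh.2 i (Finset.disjoint_left.1 k h1), La_fix hh (m k (La_Ws h2 hg (e_mem h1)))]
  rw [hg.2 i h1]
  by_cases h3 : i ∈ t
  · rw [La_fix hg (m k.symm (La_Ws h2 hh (e_mem h3)))]
  · rw [hh.2 i h3, hg.2 i h1]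

theorem tran (k : 3 ≤ s.card) (ha : a ∈ s) (hu : u ∈ Ws F s) (u1 : u ⬝ᵥ u = 1) : ∃ g ∈ La F s, g.1 (ee F a) = u := by
  have nd : ∀ s, (CForm.ofQuad (q7 F)).NondegOn (Ws F s) := fun s x hx h =>
    nd_Ws x hx fun y hy => mul_left_cancel₀ h2 (by rw [← q7_pol, mul_zero]; exact h y hy)
  let H : Finset (Fin 7) → Subgroup (OO F) := fun s => ⨅ k ∉ s, MulAction.stabilizer _ (ee F k)
  have mH : ∀ s g, g ∈ H s ↔ ∀ k ∉ s, g.1 (ee F k) = ee F k := fun s g => by simp [H, Subgroup.mem_iInf]; rfl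
  have r : ∀ s, ∀ v ∈ Ws F s, refl (q7 F) v ∈ H s := fun s v hv => (mH _ _).2 fun k hk =>
    refl_apply_of_orth (by rw [q7_pol, dotProduct_comm, e_dot, mem_Ws.1 hv k hk, mul_zero])
  obtain ⟨g, hg, e⟩ : ∃ g ∈ H s, g.1 (ee F a) = u := by
    by_cases e : q7 F (ee F a - u) = 0
    swap; · exact ⟨_, r _ _ (sub_mem (e_mem ha) hu), refl_sub_apply (by rw [q7_dot, q7_dot, e_one, u1]) e⟩
    refine ⟨_, mul_mem (r _ _ hu) (r _ _ (sub_mem (e_mem ha) (neg_mem hu))), ?_⟩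
    rw [orth_mul_apply, refl_sub_apply (by simp [q7_dot, e_one, u1]) fun e' => mul_ne_zero h2 h2 ?_, map_neg,
      refl_apply_self (by simp [q7_dot, u1]), neg_neg]
    rw [Q_sub, q7_pol, q7_dot, q7_dot] at e e'
    simp only [dotProduct_neg, neg_dotProduct, e_one, u1] at e e'
    linear_combination e + e'
  obtain ⟨p, hp, m⟩ := exists_mem_commutator_of_plane (fun x h => nd .univ x (mem_Ws.2 (by simp)) fun y _ => h y)
    (notExc_of_two_ne_zero h2) (H (s.erase a)) (nd (s.erase a))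
    (le_trans (by rw [Finset.card_erase_of_mem ha]; omega) rk_Ws) (r _) g
  rw [mH] at hg hp
  exact ⟨_, ⟨m, fun k hk => by rw [orth_mul_apply, hp k (by simp [hk]), hg k hk]⟩,
    by rw [orth_mul_apply, hp a (by simp), e]⟩

theorem gen0 (k : 4 ≤ s.card) (ha : a ∈ s) {H : Subgroup (OO F)} (hH : La F (s.erase a) ≤ H) (hb : b ∈ s.erase a)
    {h : OO F} (h1 : h ∈ H) (h3 : h ∈ La F s) (e : h.1 (ee F a) = ee F b)
    (cn : ∀ v ∈ Ws F s, v ⬝ᵥ v = 1 → ReflTransGen (Ad (Ws F s)) (ee F a) v) : La F s ≤ H := fun g hg => by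
  have p := cn _ (La_Ws h2 hg (e_mem ha)) ((dot_g h2 _ _ _).trans (e_one a))
  obtain ⟨x, hx, e⟩ : ∃ x ∈ H ⊓ La F s, x.1 (ee F a) = g.1 (ee F a) := by
    generalize g.1 (ee F a) = y at p
    induction p with
    | refl => exact ⟨1, one_mem _, rfl⟩
    | tail _ n ih =>
      obtain ⟨x, hx, rfl⟩ := ih
      have n' := ad_g h2 (inv_mem hx.2) n
      rw [orth_inv_apply'] at n'
      obtain ⟨t, ht, e'⟩ := tran h2 (by rw [Finset.card_erase_of_mem ha]; omega) hb (Ws_erase n'.2.1 n'.2.2.2.2) n'.2.2.2.1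
      exact ⟨x * t * h, mul_mem (mul_mem hx ⟨hH ht, (La_erase.1 ht).1⟩) ⟨h1, h3⟩, by
        rw [orth_mul_apply, orth_mul_apply, e, e', orth_inv_apply]⟩
  exact (H.mul_mem_cancel_left (H.inv_mem hx.1)).1 (hH (La_erase.2 ⟨mul_mem (inv_mem hx.2) hg, by
    rw [orth_mul_apply, ← e, orth_inv_apply']⟩))

omit h2 in
theorem exb [Fintype F] (h : 5 ≤ Fintype.card F) : ∃ b : F, b ≠ 0 ∧ b ^ 2 ≠ 1 := by
  classical
  obtain ⟨b, -, hb⟩ := Finset.exists_mem_notMem_of_card_lt_card (s := {(0 : F), 1, -1}) (t := .univ)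
    (Finset.card_le_three.trans_lt (by simpa using by omega))
  exact ⟨b, by simpa [sq_eq_one_iff, not_or] using hb⟩

omit h2 in
theorem gn : GN := fun F _ _ hF J i σ hJ hσ hs hi => by
  have h2 := odd_card_iff.1 hF
  have ha : i ∈ J := hs (by simpa)
  refine gen0 h2 (by omega) ha le_sup_left (Finset.mem_erase.2 ⟨hi, hs (by simpa)⟩)
    (Subgroup.mem_sup_right (Subgroup.mem_zpowers _)) (pm_mem hσ hs) (pm_ee _ _) fun v hv v1 => ?_
  have := rk_Ws (F := F) (s := J)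
  rcases hJ with h | h
  · obtain ⟨w, a, e⟩ := c2 h2 nd_Ws (by omega) (e_mem ha) (e_one i) v
    exact .head a (.single (Ad.symm ⟨hv, a.2.1, v1, a.2.2.2.1, e⟩))
  · exact conn h2 (exb h.2) nd_Ws (by omega) (e_mem ha) hv (e_one i) v1

end H0.X
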