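/-
Orthogonal Phan systems III: the inductive step.
-/
import Cfsg.Agent.H0.XG2

set_option autoImplicit false
set_option linter.unusedSectionVars false

namespace H0.X
open Module Submodule Relation H17.X H12

variable {F : Type} [Field F] {s t : Finset (Fin 7)} {a b c d : Fin 7} {G : Type*} [Group G]
  {Δ Δ' S : Subgroup (OO F × G)}

/-- `Δ` is the graph of a homomorphism defined on `La s` -/
def Gr (s : Finset (Fin 7)) (Δ : Subgroup (OO F × G)) : Prop :=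
  (∀ x ∈ Δ, x.1 = 1 → x = 1) ∧ Δ.map (.fst _ _) = La F s

theorem Gr.bk (h : Gr s Δ) {x : OO F × G} (hx : x ∈ Δ) : x.1 ∈ La F s := h.2.le ⟨x, hx, rfl⟩
theorem Gr.ex (h : Gr s Δ) {g : OO F} (hg : g ∈ La F s) : ∃ x ∈ Δ, x.1 = g := h.2.ge hg
theorem Gr.of (h : Gr s Δ) (hS : S ≤ Δ) (k : La F t ≤ S.map (.fst _ _)) {x : OO F × G} (hx : x ∈ Δ)
    (ht : x.1 ∈ La F t) : x ∈ S := by
  obtain ⟨y, hy, e⟩ := k ht
  rwa [← inv_mul_eq_one.1 (h.1 _ (mul_mem (inv_mem (hS hy)) hx) (by simpa [inv_mul_eq_one] using e))]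

variable [Finite F] (h2 : (2 : F) ≠ 0) (hb : ∃ b : F, b ≠ 0 ∧ b ^ 2 ≠ 1)
include h2 hb

theorem gen1 (k : 4 ≤ s.card) (ha : a ∈ s) {H : Subgroup (OO F)} (hH : La F (s.erase a) ≤ H) (hb' : b ∈ s.erase a)
    {h : OO F} (h1 : h ∈ H) (h3 : h ∈ La F s) (e : h.1 (ee F a) = ee F b) : La F s ≤ H :=
  gen0 h2 k ha hH hb' h1 h3 e fun _ hv v1 => conn h2 hb nd_Ws (k.trans rk_Ws) (e_mem ha) hv (e_one a) v1

theorem gen2 (k : 4 ≤ s.card) (hc : c ∈ s) (hd : d ∈ s) (cd : c ≠ d) {H : Subgroup (OO F)} (h1 : La F (s.erase c) ≤ H)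
    (h3 : La F (s.erase d) ≤ H) : La F s ≤ H := by
  obtain ⟨j, hj⟩ : ((s.erase d).erase c).Nonempty := Finset.card_pos.1 (by
    have := Finset.pred_card_le_card_erase (s := s) (a := d)
    have := Finset.pred_card_le_card_erase (s := s.erase d) (a := c)
    omega)
  obtain ⟨h, hh, e⟩ := tran h2 (s := s.erase d) (by rw [Finset.card_erase_of_mem hd]; omega) (Finset.mem_erase.2 ⟨cd, hc⟩)
    (e_mem (Finset.mem_of_mem_erase hj)) (e_one j)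
  exact gen1 h2 hb k hc h1 (by simp_all) (h3 hh) (La_erase.1 hh).1 e

theorem step (k6 : 6 ≤ s.card) (ha : a ∈ s) (hb' : b ∈ s) (hc : c ∈ s) (hd : d ∈ s) (ab : a ≠ b) (ac : a ≠ c) (bc : b ≠ c)
    (ad : a ≠ d) (bd : b ≠ d) (cd : c ≠ d) (h : Gr (s.erase a) Δ) (h' : Gr (s.erase d) Δ')
    (h1 : ∀ x ∈ Δ', x.1.1 (ee F a) = ee F a → x ∈ Δ) {p : OO F × G} (hp : p ∈ Δ') (pa : p.1.1 (ee F a) = ee F b)
    (h3 : ∀ x ∈ Δ, x.1 ∈ La F (((s.erase a).erase b).erase c) → Commute p x) : Gr s (Δ ⊔ Δ') := by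
  have ca := Finset.card_erase_of_mem ha
  have cd' := Finset.card_erase_of_mem hd
  have ba : b ∈ s.erase a := Finset.mem_erase.2 ⟨ab.symm, hb'⟩
  have ad' : a ∈ s.erase d := Finset.mem_erase.2 ⟨ad, ha⟩
  have bda : b ∈ (s.erase d).erase a := by simp [*, ab.symm]
  have m : (Δ ⊔ Δ').map (.fst _ _) = La F s := by
    rw [Subgroup.map_sup, h.2, h'.2]
    exact (sup_le (La_mono (s.erase_subset _)) (La_mono (s.erase_subset _))).antisymm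
      (gen2 h2 hb (by omega) ha hd ad le_sup_left le_sup_right)
  refine ⟨fun x hx x1 => h.1 x ?_ x1, m⟩
  letI : MulAction (OO F × G) (Fin 7 → F) := MulAction.compHom _ ((orth (q7 F)).subtype.comp (MonoidHom.fst (OO F) G))
  have sm : ∀ (x : OO F × G) (v : Fin 7 → F), x.1.1 v = x • v := fun _ _ => rfl
  simp only [sm] at h1 pa
  let D : Set (OO F × G) := {x | ∃ δ ∈ Δ, ∃ δ' ∈ Δ, x = δ * p * δ'}
  have f0 : ∀ δ ∈ Δ, δ • ee F a = ee F a := fun δ hδ => (La_erase.1 (h.bk hδ)).2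
  have dl : ∀ δ ∈ Δ, ∀ x ∈ D, δ * x ∈ D := fun δ hδ x ⟨γ, hγ, γ', hγ', e⟩ =>
    ⟨_, mul_mem hδ hγ, γ', hγ', by simp [e, mul_assoc]⟩
  have dr : ∀ δ ∈ Δ, ∀ x ∈ D, x * δ ∈ D := fun δ hδ x ⟨γ, hγ, γ', hγ', e⟩ =>
    ⟨_, hγ, _, mul_mem hγ' hδ, by simp [e, mul_assoc]⟩
  have hA : ∀ g ∈ Δ ⊔ Δ', ∀ x y, Ad (Ws F s) x y → Ad (Ws F s) (g • x) (g • y) := fun g hg x y k =>
    ad_g h2 (m.le ⟨g, hg, rfl⟩) k
  have K : ∀ x ∈ Δ', Ad (Ws F s) (ee F a) (x • ee F a) → x ∈ D := fun x hx k => by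
    obtain ⟨t, ht, e⟩ := tran h2 (by rw [Finset.card_erase_of_mem ad']; omega) bda
      (Ws_erase (La_Ws h2 (h'.bk hx) (e_mem ad')) k.2.2.2.2) k.2.2.2.1
    obtain ⟨t, ht', rfl⟩ := h'.ex (La_erase.1 ht).1
    refine ⟨t, h1 t ht' (La_erase.1 ht).2, (t * p)⁻¹ * x, h1 _ (mul_mem (inv_mem (mul_mem ht' hp)) hx) ?_, by group⟩
    rw [mul_smul, ← sm x, ← e, sm, ← pa, ← mul_smul t, inv_smul_smul]
  have a0 : Ad (Ws F s) (ee F a) (p • ee F a) := pa ▸ ⟨e_mem ha, e_mem hb', e_one a, e_one b, by simp [e_dot, e_app, ab]⟩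
  have di : ∀ x ∈ D, x⁻¹ ∈ D := fun x ⟨γ, hγ, γ', hγ', e⟩ => by
    have := K _ (inv_mem hp) (by simpa using hA _ (Subgroup.mem_sup_right (inv_mem hp)) _ _ a0.symm)
    simpa [e, mul_assoc] using dl _ (inv_mem hγ') _ (dr _ (inv_mem hγ) _ this)
  have un : ∀ x ∈ D, ∀ y ∈ D, x • ee F a = y • ee F a → x⁻¹ * y ∈ Δ := by
    rintro _ ⟨γ, hγ, δ, hδ, rfl⟩ _ ⟨γ', hγ', δ', hδ', rfl⟩ e
    simp only [mul_smul, f0 _ hδ, f0 _ hδ', pa] at e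
    have hm := mul_mem (inv_mem hγ) hγ'
    have := h.of (S := Δ ⊓ H19.cj p Δ) (t := (s.erase a).erase b) inf_le_left (gen2 h2 hb (c := c) (d := d)
      (by rw [Finset.card_erase_of_mem ba]; omega) (by simp [*, ac.symm, bc.symm]) (by simp [*, ad.symm, bd.symm]) cd
      (fun g hg => ?_) fun g hg => ?_) hm (La_erase.2 ⟨h.bk hm, by rw [sm, mul_smul, ← e, inv_smul_smul]⟩)
    · simpa [mul_assoc] using mul_mem (mul_mem (inv_mem hδ) (H19.mem_cj.1 this.2)) hδ'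
    · obtain ⟨x, hx, rfl⟩ := h.ex (La_erase.1 (La_erase.1 hg).1).1
      exact ⟨x, ⟨hx, H19.mem_cj.2 (by rwa [mul_assoc, ← (h3 x hx hg).eq, inv_mul_cancel_left])⟩, rfl⟩
    · rw [Finset.erase_right_comm, Finset.erase_right_comm (a := a)] at hg
      obtain ⟨x, hx, rfl⟩ := h'.ex (La_erase.1 (La_erase.1 hg).1).1
      exact ⟨x, ⟨h1 x hx (La_erase.1 (La_erase.1 hg).1).2, H19.mem_cj.2 (h1 _ (mul_mem (mul_mem (inv_mem hp) hx) hp) (by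
        rw [mul_smul, mul_smul, pa, ← sm x, (La_erase.1 hg).2, ← pa, inv_smul_smul]))⟩, rfl⟩
  have hD : ∀ x ∈ D, x ∈ Δ ⊔ Δ' := by
    rintro _ ⟨γ, hγ, δ, hδ, rfl⟩
    exact mul_mem (Subgroup.mul_mem_sup hγ hp) (Subgroup.mem_sup_left hδ)
  have da : ∀ x ∈ D, Ad (Ws F s) (ee F a) (x • ee F a) := by
    rintro _ ⟨γ, hγ, δ, hδ, rfl⟩
    simpa [mul_smul, f0 _ hγ, f0 _ hδ] using hA _ (Subgroup.mem_sup_left hγ) _ _ a0
  have pD : p ∈ D := ⟨1, one_mem _, 1, one_mem _, by simp⟩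
  have g2 : ∀ y z, Ad (Ws F s) y z → ∃ u, Ad (Ws F s) (ee F a) u ∧ Ad (Ws F s) y u ∧ Ad (Ws F s) z u := fun y z k =>
    let ⟨u, e, k1, k2⟩ := three h2 nd_Ws (k6.trans rk_Ws) k (ee F a)
    ⟨u, ⟨e_mem ha, k1.2.1, e_one a, k1.2.2.2.1, e⟩, k1, k2⟩
  refine gc (x₀ := ee F a) (A := Ad (Ws F s)) (Γ := Δ ⊔ Δ') (D := D) hD hA (fun _ _ => Ad.symm) di dl da (fun y k => ?_) un
    (fun x hx y hy k => ?_) g2 (fun z y y' => quad h2 hb nd_Ws (k6.trans rk_Ws)) ⟨p, pD⟩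
    ((sup_le (fun x hx => Subgroup.subset_closure (.inl hx)) (fun y hy => ?_) : Δ ⊔ Δ' ≤ _) hx) (by rw [← sm, x1]; rfl)
  · obtain ⟨t, ht, e⟩ := tran h2 (by omega) ba (Ws_erase k.2.1 k.2.2.2.2) k.2.2.2.1
    obtain ⟨t, ht', rfl⟩ := h.ex ht
    exact ⟨_, dl t ht' p pD, by rw [mul_smul, pa, ← sm, e]⟩
  · obtain ⟨w, w1, w2, w3⟩ := g2 _ _ k
    obtain ⟨μ, hμ', rfl⟩ := tran h2 (by omega) (Finset.mem_erase.2 ⟨ad.symm, hd⟩) (Ws_erase w1.2.1 w1.2.2.2.2) w1.2.2.2.1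
    obtain ⟨μ, hμ, rfl⟩ := h.ex hμ'
    have k' : ∀ x ∈ D, Ad (Ws F s) (x • ee F a) (μ.1.1 (ee F d)) → ∃ y ∈ Δ', ∃ δ ∈ Δ, x = μ * y * δ := fun x hx k => by
      have := dl _ (inv_mem hμ) x hx
      have k1 := hA _ (Subgroup.mem_sup_left (inv_mem hμ)) _ _ k.symm
      rw [sm, inv_smul_smul, ← mul_smul] at k1
      obtain ⟨y, hy, e⟩ := tran h2 (by omega) ad' (Ws_erase k1.2.1 k1.2.2.2.2) k1.2.2.2.1
      obtain ⟨y, hy', rfl⟩ := h'.ex hy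
      exact ⟨y, hy', _, un y (K y hy' (by rw [← sm, e]; exact da _ this)) _ this e, by group⟩
    obtain ⟨x, hx', δ, hδ, rfl⟩ := k' x hx w2
    obtain ⟨y, hy', δ', hδ', rfl⟩ := k' y hy w3
    have := K _ (mul_mem (inv_mem hx') hy') (by
      simpa [mul_smul, f0 _ hδ, f0 _ hδ'] using hA _ (inv_mem (Subgroup.mul_mem_sup hμ hx')) _ _ k)
    simpa [mul_assoc] using dl _ (inv_mem hδ) _ (dr _ hδ' _ this)
  · refine (h'.of (S := Δ' ⊓ Subgroup.closure (Δ ∪ D)) inf_le_left (gen1 h2 hb (by omega) ad' (fun g hg => ?_) bda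
      ⟨p, ⟨hp, Subgroup.subset_closure (.inr pD)⟩, rfl⟩ (h'.bk hp) pa) hy (h'.bk hy)).2
    obtain ⟨x, hx, rfl⟩ := h'.ex (La_erase.1 hg).1
    exact ⟨x, ⟨hx, Subgroup.subset_closure (.inl (h1 x hx (La_erase.1 hg).2))⟩, rfl⟩

end H0.X
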