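/-
Orthogonal Phan systems IV: recognition of `Ω₇(q)`.
-/
import Cfsg.Agent.H0.XG3

set_option autoImplicit false
set_option linter.unusedSectionVars false

namespace H0.X
open H17.X H12 Equiv Finset
open H19 (cj mem_cj conj_mem_cj cj_mul)
universe u

variable {F : Type} [Field F] {s s' t T : Finset (Fin 7)} {G : Type u} [Group G] {K : Finset (Fin 7) → Subgroup G}
  {Δ Γ : Subgroup (OO F × G)} {σ τ : Perm (Fin 7)} {g n : G}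

variable (K) in
/-- the part of `Γ` over `La T` projects onto `K T` -/
def Ok (Γ : Subgroup (OO F × G)) (T : Finset (Fin 7)) : Prop := ∀ k, k ∈ K T ↔ ∃ x ∈ Γ, x.1 ∈ La F T ∧ x.2 = k

variable (K) in
/-- `Γ` contains a pair acting as `σ` -/
def Ap (Γ : Subgroup (OO F × G)) (σ : Perm (Fin 7)) : Prop := ∃ g, (pm F σ, g) ∈ Γ ∧ AcK K g σ

theorem card_im (σ : Perm (Fin 7)) : (T.image σ).card = T.card := card_image_of_injective _ σ.injective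
theorem ack_mul (h : AcK K g σ) (h' : AcK K n τ) : AcK K (g * n) (σ * τ) := fun T hT => by
  rw [cj_mul, h' T hT, h _ (by rwa [card_im]), image_image]; rfl
theorem ack_inv (h : AcK K g σ) : AcK K g⁻¹ σ⁻¹ := fun T hT => by
  rw [← H19.cj_inv_cj g (K (T.image _)), h _ (by rwa [card_im]), image_image]; simp [Function.comp_def]
theorem la_cj {x : OO F} : x ∈ La F (T.image σ) ↔ (pm F σ)⁻¹ * x * pm F σ ∈ La F T :=
  ⟨fun h => by simpa [image_image, Function.comp_def] using pm_La σ⁻¹ h, fun h => by simpa [mul_assoc] using pm_La σ h⟩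
theorem Gr.cj (h : Gr s Γ) (σ : Perm (Fin 7)) (g : G) : Gr (s.image σ) (cj (pm F σ, g) Γ) :=
  ⟨fun x hx e => conj_eq_one_iff.1 (by rw [inv_inv]; exact h.1 _ (mem_cj.1 hx) (by simp [e])), Subgroup.ext fun x =>
    ⟨fun ⟨y, hy, e⟩ => e ▸ la_cj.2 (h.bk (mem_cj.1 hy)), fun hx => by
      obtain ⟨y, hy, e⟩ := h.ex (la_cj.1 hx)
      exact ⟨_, conj_mem_cj.2 hy, by simp [e, mul_assoc]⟩⟩⟩
theorem Ok.cj (h : Ok K Γ T) (hT : T.card = 3) (a : AcK K g σ) : Ok K (cj (pm F σ, g) Γ) (T.image σ) := fun k => by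
  rw [← a T hT, mem_cj, h]
  exact ⟨fun ⟨x, hx, h1, e⟩ => ⟨_, conj_mem_cj.2 hx, pm_La σ h1, by simp [e, mul_assoc]⟩,
    fun ⟨x, hx, h1, e⟩ => ⟨_, mem_cj.1 hx, la_cj.1 h1, by simp [e]⟩⟩
theorem Ok.mono (h : Ok K Δ T) (h1 : Gr s Δ) (h2 : Gr s' Γ) (le : Δ ≤ Γ) (hT : T ⊆ s) : Ok K Γ T := fun k =>
  (h k).trans ⟨fun ⟨x, hx, e⟩ => ⟨x, le hx, e⟩, fun ⟨x, hx, e⟩ => ⟨x, h2.of le h1.2.ge hx (La_mono hT e.1), e⟩⟩
theorem Ap.ok (a : Ap K Γ σ) (hT : T.card = 3) (h : Ok K Γ (T.image σ)) : Ok K Γ T := by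
  obtain ⟨g, hg, a⟩ := a
  have := h.cj (by rwa [card_im]) (ack_inv a)
  rw [H19.cj_of_mem (by simpa using inv_mem hg)] at this
  simpa [image_image, Function.comp_def] using this
theorem Ap.cj (a : Ap K Γ σ) (b : AcK K n τ) : Ap K (cj (pm F τ, n) Γ) (τ * σ * τ⁻¹) :=
  let ⟨g, hg, a⟩ := a
  ⟨n * g * n⁻¹, by simpa using (conj_mem_cj (g := (pm F τ, n))).2 hg, ack_mul (ack_mul b a) (ack_inv b)⟩

variable [Finite F] (h2 : (2 : F) ≠ 0) (hb : ∃ b : F, b ≠ 0 ∧ b ^ 2 ≠ 1)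
  (hK : ∀ T T' : Finset (Fin 7), T.card = 3 → T'.card = 3 → Disjoint T T' → K T ≤ Subgroup.centralizer (K T'))
include h2 hb hK

theorem cm (h : Gr s Γ) (hT : T.card = 3) (hd : Disjoint T t) (ts : t ⊆ s) (ht : t.card = 3 ∨ t.card = 4)
    (ok : ∀ T ⊆ t, T.card = 3 → Ok K Γ T) {p : OO F × G} (p1 : p.1 ∈ La F T) (p2 : p.2 ∈ K T) :
    ∀ x ∈ Γ, x.1 ∈ La F t → Commute p x := fun x hx x1 => by
  have k : ∀ T' ⊆ t, T'.card = 3 → La F T' ≤ (Γ ⊓ Subgroup.centralizer {p}).map (.fst _ _) := fun T' h1 h3 y hy => by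
    obtain ⟨y, hy', rfl⟩ := h.ex (La_mono (h1.trans ts) hy)
    exact ⟨y, ⟨hy', Subgroup.mem_centralizer_singleton_iff.2 (Prod.ext (La_comm h2 p1 hy (hd.mono_right h1)).symm
      (hK _ _ hT h3 (hd.mono_right h1) p2 _ ((ok _ h1 h3 _).2 ⟨y, hy', hy, rfl⟩)))⟩, rfl⟩
  refine (Subgroup.mem_centralizer_singleton_iff.1 (h.of inf_le_left ?_ hx x1).2).symm
  rcases ht with ht | ht
  · exact k t subset_rfl ht
  obtain ⟨c, hc, d, hd, cd⟩ := one_lt_card.1 (show 1 < t.card by omega)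
  exact gen2 h2 hb ht.ge hc hd cd (k _ (erase_subset _ _) (by rw [card_erase_of_mem hc, ht]))
    (k _ (erase_subset _ _) (by rw [card_erase_of_mem hd, ht]))

omit hb hK in
theorem exp {a : Fin 7} (h : Gr s Γ) (ha : ({a, 0, 1} : Finset (Fin 7)).card = 3) (hs : {a, 0, 1} ⊆ s) (ok : Ok K Γ {a, 0, 1}) :
    ∃ p ∈ Γ, p.1 ∈ La F {a, 0, 1} ∧ p.2 ∈ K {a, 0, 1} ∧ p.1.1 (ee F a) = ee F 0 := by
  obtain ⟨g, hg, e⟩ := tran h2 ha.ge (a := a) (by simp) (e_mem (a := 0) (by simp)) (e_one 0)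
  obtain ⟨p, hp, rfl⟩ := h.ex (La_mono hs hg)
  exact ⟨p, hp, hg, (ok _).2 ⟨p, hp, hg, rfl⟩, e⟩

theorem six (hτ : τ = swap 4 5 * swap 4 6 ∨ τ = (swap 4 5 * swap 4 6)⁻¹) (h : Gr J5 Δ) (ok : ∀ T ⊆ J5, T.card = 3 → Ok K Δ T)
    (ap : ∀ y < 4, ∀ z < 4, y ≠ z → Ap K Δ (swap 6 y * swap 6 z)) (hn : n ∈ K {4, 5, 6}) (an : AcK K n τ) :
    ∃ Γ, Δ ≤ Γ ∧ Gr (univ.erase (τ⁻¹ 6)) Γ ∧ (∀ T ⊆ univ.erase (τ⁻¹ 6), T.card = 3 → Ok K Γ T) ∧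
      ∀ y < 4, ∀ z < 4, y ≠ z → Ap K Γ (τ * (swap 6 y * swap 6 z) * τ⁻¹) := by
  have h1 := h.cj τ n
  have ok1 : ∀ T ⊆ J5.image τ, T.card = 3 → Ok K (cj (pm F τ, n) Δ) T := fun T hT h3 => by
    obtain ⟨T, hT', rfl⟩ := subset_image_iff.1 hT
    rw [card_im] at h3
    exact (ok T hT' h3).cj h3 an
  have f : ({τ 6, 0, 1} : Finset (Fin 7)).card = 3 ∧ {τ 6, 0, 1} ⊆ J5.image τ ∧ (univ.erase (τ⁻¹ 6)).erase (τ 6) = J5 ∧
      (univ.erase (τ⁻¹ 6)).erase 6 = J5.image τ ∧ τ.support ⊆ {4, 5, 6} ∧ Disjoint {τ 6, 0, 1} ((J5.erase 0).erase 1) ∧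
      τ 6 ≠ τ⁻¹ 6 ∧ 0 ≠ τ⁻¹ 6 ∧ 1 ≠ τ⁻¹ 6 ∧ 6 ≠ τ⁻¹ 6 ∧ τ 6 ≠ 0 ∧ τ 6 ≠ 1 ∧ τ 6 ≠ 6 ∧
      ∀ T ⊆ univ.erase (τ⁻¹ 6), T.card = 3 → T ⊆ J5 ∨ T ⊆ J5.image τ ∨
        ∃ y < (4 : Fin 7), ∃ z < (4 : Fin 7), y ≠ z ∧ T.image (swap 6 y * swap 6 z :) ⊆ J5.image τ := by
    rcases hτ with rfl | rfl <;> decide +kernel
  obtain ⟨f1, f2, f3, f4, f5, f6, f7, f8, f9, f10, f11, f12, f13, f14⟩ := f
  have t3 : τ.IsThreeCycle := by
    have := Perm.isThreeCycle_swap_mul_swap_same (a := (4 : Fin 7)) (b := 5) (c := 6) (by decide) (by decide) (by decide)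
    rcases hτ with rfl | rfl; exacts [this, this.inv]
  obtain ⟨p, hp, p1, p2, p3⟩ := exp h2 h1 f1 f2 (ok1 _ f2 f1)
  have G6 := step h2 hb (s := univ.erase (τ⁻¹ 6)) (a := τ 6) (b := 0) (c := 1) (d := 6) (by simp) (by simpa) (by simpa)
    (by simpa) (by simpa) f11 f12 (by decide) f13 (by decide) (by decide) (f3 ▸ h) (f4 ▸ h1) (fun x hx e => ?_) hp p3
    (f3 ▸ cm h2 hb hK h f1 f6 (by decide) (by decide) (fun T hT => ok T (hT.trans (by decide))) p1 p2)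
  · refine ⟨_, le_sup_left, G6, fun T hT h3 => ?_, fun y hy z hz e => let ⟨g, m, a⟩ := (ap y hy z hz e).cj an;
      ⟨g, Subgroup.mem_sup_right m, a⟩⟩
    rcases f14 T hT h3 with k | k | ⟨y, hy, z, hz, e, k⟩
    · exact (ok T k h3).mono h G6 le_sup_left k
    · exact (ok1 T k h3).mono h1 G6 le_sup_right k
    · obtain ⟨g, m, a⟩ := ap y hy z hz e
      exact Ap.ok ⟨g, Subgroup.mem_sup_left m, a⟩ h3 ((ok1 _ k (by rwa [card_im])).mono h1 G6 le_sup_right k)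
  · have hy := mem_cj.1 hx
    have := cm h2 hb hK h (T := {4, 5, 6}) (t := J5.erase 6) (by decide) (by decide) (by decide) (by decide)
      (fun T hT => ok T (hT.trans (by decide))) (p := (pm F τ, n)) (pm_mem t3 f5) hn _ hy (La_erase.2 ⟨h.bk hy, by
        change ((pm F τ)⁻¹).1 (x.1.1 ((pm F τ).1 _)) = _
        rw [pm_ee, e, ← pm_ee, orth_inv_apply']⟩)
    rwa [← mul_inv_cancel_right (_ * x * _) (pm F τ, n), ← this.eq, ← mul_assoc, mul_inv_cancel_right,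
      mul_inv_cancel_left] at hy

omit [Finite F] h2 hb hK in
theorem rc : RC.{u} := fun F _ _ hF h5 G _ K f n τ hK hf hn t3 ts an ap => by
  have h2 := odd_card_iff.1 hF
  have hb := exb h5
  have hτ : τ = swap 4 5 * swap 4 6 ∨ τ = (swap 4 5 * swap 4 6)⁻¹ := by
    have k : ∀ i, τ i ≠ i ↔ i ∈ ({4, 5, 6} : Finset (Fin 7)) := fun i => by rw [← ts, Perm.mem_support]
    have k' : ∀ i, τ i ∈ ({4, 5, 6} : Finset (Fin 7)) ↔ i ∈ ({4, 5, 6} : Finset (Fin 7)) := fun i => by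
      rw [← ts, Perm.apply_mem_support]
    have e : ∀ a b c : Fin 7, a ∈ ({4, 5, 6} : Finset (Fin 7)) → b ∈ ({4, 5, 6} : Finset (Fin 7)) →
        c ∈ ({4, 5, 6} : Finset (Fin 7)) → a ≠ 4 → b ≠ 5 → c ≠ 6 → a ≠ b → a ≠ c → b ≠ c →
        ![0, 1, 2, 3, a, b, c] = ⇑(swap 4 5 * swap 4 6 : Perm (Fin 7)) ∨
          ![0, 1, 2, 3, a, b, c] = ⇑(swap 4 5 * swap 4 6 : Perm (Fin 7))⁻¹ := by decide +kernel
    have e' : ⇑τ = ![0, 1, 2, 3, τ 4, τ 5, τ 6] := funext fun i => by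
      fin_cases i <;> first | rfl | exact not_not.1 fun h => absurd ((k _).1 h) (by decide)
    exact (e _ _ _ ((k' 4).2 (by decide)) ((k' 5).2 (by decide)) ((k' 6).2 (by decide)) ((k 4).2 (by decide))
      ((k 5).2 (by decide)) ((k 6).2 (by decide)) (by simp) (by simp) (by simp)).imp
      (fun h => DFunLike.coe_injective (e'.trans h)) fun h => DFunLike.coe_injective (e'.trans h)
  let Δ := ((La F J5).subtype.prod f).range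
  have h : Gr J5 Δ := ⟨by rintro _ ⟨x, rfl⟩ e; rw [show x = 1 from Subtype.ext e, map_one], by
    rw [MonoidHom.map_range]; exact (La F J5).range_subtype⟩
  have ok : ∀ T ⊆ J5, T.card = 3 → Ok K Δ T := fun T hT h3 k => by
    rw [← hf T hT h3]
    exact ⟨fun ⟨x, hx, e⟩ => ⟨_, ⟨x, rfl⟩, hx, e⟩, by rintro ⟨_, ⟨x, rfl⟩, hx, e⟩; exact ⟨x, hx, e⟩⟩
  have ap' : ∀ y < 4, ∀ z < 4, y ≠ z → Ap K Δ (swap 6 y * swap 6 z) := fun y hy z hz e => by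
    have t := Perm.isThreeCycle_swap_mul_swap_same (a := 6) (b := y) (c := z) (by omega) (by omega) e
    have s : (swap 6 y * swap 6 z).support ⊆ J5 := by clear t; revert y z; decide +kernel
    exact ⟨_, ⟨⟨_, pm_mem t s⟩, rfl⟩, ap _ _ t s⟩
  obtain ⟨Γ, l1, g1, o1, a1⟩ := six h2 hb hK hτ h ok ap' hn an
  obtain ⟨Γ', l2, g2, o2, -⟩ := six h2 hb hK (τ := τ⁻¹) (hτ.symm.imp (by rintro rfl; rfl) (by rintro rfl; rfl)) h ok ap'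
    (inv_mem hn) (ack_inv an)
  rw [inv_inv] at g2 o2
  have k : ({τ⁻¹ 6, 0, 1} : Finset (Fin 7)).card = 3 ∧ {τ⁻¹ 6, 0, 1} ⊆ univ.erase (τ 6) ∧
      (univ.erase (τ 6)).erase (τ⁻¹ 6) = J5 ∧ (((univ.erase (τ⁻¹ 6)).erase 0).erase 1).card = 4 ∧
      Disjoint {τ⁻¹ 6, 0, 1} (((univ.erase (τ⁻¹ 6)).erase 0).erase 1) ∧
      τ⁻¹ 6 ≠ 0 ∧ τ⁻¹ 6 ≠ 1 ∧ τ⁻¹ 6 ≠ τ 6 ∧ 0 ≠ τ 6 ∧ 1 ≠ τ 6 ∧
      ∀ T : Finset (Fin 7), T.card = 3 → T ⊆ univ.erase (τ⁻¹ 6) ∨ T ⊆ univ.erase (τ 6) ∨ ∃ y < (4 : Fin 7), ∃ z < (4 : Fin 7),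
        y ≠ z ∧ T.image (τ * (swap 6 y * swap 6 z) * τ⁻¹ :) ⊆ univ.erase (τ 6) := by
    rcases hτ with rfl | rfl <;> decide +kernel
  obtain ⟨f1, f2, f3, f4, f5, f6, f7, f8, f9, f10, f11⟩ := k
  obtain ⟨p, hp, p1, p2, p3⟩ := exp h2 g2 f1 f2 (o2 _ f2 f1)
  have ss := (erase_subset 1 _).trans (erase_subset 0 (univ.erase (τ⁻¹ 6)))
  have G7 := step h2 hb (s := univ) (by simp) (mem_univ _) (mem_univ 0) (mem_univ 1) (mem_univ _) f6 f7 (by decide) f8 f9 f10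
    g1 g2 (fun x hx e => l1 (g2.of l2 h.2.ge hx (f3 ▸ La_erase.2 ⟨g2.bk hx, e⟩))) hp p3
    (cm h2 hb hK g1 f1 f5 ss (.inr f4) (fun T hT => o1 T (hT.trans ss)) p1 p2)
  let e : ↥(Γ ⊔ Γ') ≃* La F univ := .ofBijective (((MonoidHom.fst _ _).comp (Γ ⊔ Γ').subtype).codRestrict _ fun x => G7.bk x.2)
    ⟨(injective_iff_map_eq_one _).2 fun x e => Subtype.ext (G7.1 _ x.2 (congrArg Subtype.val e)), fun y =>
      let ⟨x, hx, e⟩ := G7.ex y.2; ⟨⟨x, hx⟩, Subtype.ext e⟩⟩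
  refine ⟨((MonoidHom.snd _ _).comp (Γ ⊔ Γ').subtype).comp e.symm, fun T h3 k hk => ?_⟩
  suffices o : Ok K (Γ ⊔ Γ') T by
    obtain ⟨x, hx, -, rfl⟩ := (o k).1 hk
    exact ⟨e ⟨x, hx⟩, by simp⟩
  rcases f11 T h3 with k | k | ⟨y, hy, z, hz, e, k⟩
  · exact (o1 T k h3).mono g1 G7 le_sup_left k
  · exact (o2 T k h3).mono g2 G7 le_sup_right k
  · obtain ⟨g, m, a⟩ := a1 y hy z hz e
    exact Ap.ok ⟨g, Subgroup.mem_sup_left m, a⟩ h3 ((o2 _ k (by rwa [card_im])).mono g2 G7 le_sup_right k)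

end H0.X
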